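import Cfsg.Agent.OddTransp48.Swappers

/-!
# The final contradiction for the blocks
-/

set_option autoImplicit false
set_option linter.style.haveILetI false

open Cfsg

namespace CfsgLib.OddTransp48

variable {G : Type*} [Group G] [Finite G] {p : ℕ} {D : Set G}

namespace Flat

variable (hF : Flat p D)
include hF

omit [Finite G] in
theorem pow_smul_fixed {g : G} {B : ↥hF.good.blocks} (h : g • B = B) (k : ℕ) : g ^ k • B = B := by
  induction k with
  | zero => rw [pow_zero, one_smul]
  | succ k ih => rw [pow_succ, mul_smul, h, ih]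

/-- Each of the non-identity products of two swappers has no fixed point among the members. -/
theorem block_cycle {u x a : G} (hu : u ∈ D) (hx : x ∈ D) (hux : ¬ Commute u x) (ha : a ∈ D)
    (hfix : (u * x) • hF.good.bk ha = hF.good.bk ha) {d : G} (hd : d ∈ D) (hda : Commute d a) :
    ∃ k < p, d = (u * x) ^ k * a * ((u * x) ^ k)⁻¹ := by
  have hp := hF.prime
  set g := u * x with hg
  have hgp : g ^ p = 1 := hF.good.pow_p hu hx hux
  let f : Fin p → G := fun k => g ^ (k : ℕ) * a * (g ^ (k : ℕ))⁻¹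
  have hmem : ∀ k, f k ∈ (cblock D a).s := by
    intro k
    refine ⟨hF.good.conj _ a ha, (hF.bk_eq_iff (hF.good.conj _ a ha) ha).mp ?_⟩
    rw [← hF.good.smul_bk]; exact hF.pow_smul_fixed hfix k
  have key : ∀ i j : ℕ, i < j → j < p → g ^ i * a * (g ^ i)⁻¹ = g ^ j * a * (g ^ j)⁻¹ → False := by
    intro i j hij hjp h
    obtain ⟨d, rfl⟩ := Nat.exists_eq_add_of_le hij.le
    have h1 : Commute (g ^ d) a := by
      rw [pow_add, mul_inv_rev] at h
      have h2 := congrArg (fun z => (g ^ i)⁻¹ * z * g ^ i) h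
      simp only [mul_assoc, inv_mul_cancel_left, inv_mul_cancel, mul_one] at h2
      show g ^ d * a = a * g ^ d
      rw [← mul_inv_eq_iff_eq_mul, mul_assoc]
      exact h2.symm
    obtain ⟨m, hm⟩ : ∃ m : ℕ, (g ^ d) ^ m = g := by
      refine exists_pow_eq_self_of_coprime ?_
      rw [hF.good.orderOf_mul hp hu hx hux]
      refine (hp.coprime_iff_not_dvd.mpr fun hd => ?_).symm
      have := Nat.le_of_dvd (by omega) hd
      omega
    exact hF.not_commute_mul hu hx ha hux (hm ▸ h1.pow_left m).symm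
  have hinj : Function.Injective f := by
    intro i j h
    by_contra hij
    rcases lt_or_gt_of_ne (fun h' : (i : ℕ) = j => hij (Fin.ext h')) with h' | h'
    · exact key i j h' j.2 h
    · exact key j i h' i.2 h.symm
  have heq : Set.range f = (cblock D a).s := by
    refine Set.eq_of_subset_of_ncard_le (Set.range_subset_iff.mpr hmem) ?_ (Set.toFinite _)
    rw [hF.ncard_block ha, Set.ncard_range_of_injective hinj, Nat.card_eq_fintype_card,
      Fintype.card_fin]
  have hd' : d ∈ (cblock D a).s := ⟨hd, hda⟩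
  rw [← heq] at hd'
  obtain ⟨k, rfl⟩ := hd'
  exact ⟨k, k.2, rfl⟩

/-- The number of blocks is divisible by `p`. -/
theorem dvd_card_blocks : p ∣ Nat.card ↥hF.good.blocks := by
  classical
  have hp := hF.prime
  have hp2 := hF.toMin.ne_two
  haveI := Fact.mk hp
  obtain ⟨B₀, C₀, hne₀⟩ := hF.exists_ne_block
  obtain ⟨u, hu, hU⟩ := hF.good.exists_bk B₀
  let N := {x : G // x ∈ D ∧ ¬ Commute u x}
  by_contra hdvd
  have hex : ∀ x : N, ∃ B : ↥hF.good.blocks, (u * x.1) • B = B := by
    intro x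
    have hord : (u * x.1) ^ p = 1 := hF.good.pow_p hu x.2.1 x.2.2
    have hP : IsPGroup p ↥(Subgroup.zpowers (u * x.1)) := by
      rintro ⟨z, k, rfl⟩
      refine ⟨1, Subtype.ext ?_⟩
      simp only [pow_one, SubmonoidClass.coe_pow, OneMemClass.coe_one]
      rw [← zpow_natCast, ← zpow_mul, mul_comm k, zpow_mul, zpow_natCast, hord, one_zpow]
    have hmod := hP.card_modEq_card_fixedPoints ↥hF.good.blocks
    obtain ⟨B, hB⟩ := (MulAction.fixedPoints (↥(Subgroup.zpowers (u * x.1)))
      ↥hF.good.blocks).eq_empty_or_nonempty.resolve_left fun h => hdvd (by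
        rw [h, Nat.card_coe_set_eq, Set.ncard_empty] at hmod
        exact Nat.modEq_zero_iff_dvd.mp hmod)
    exact ⟨B, hB ⟨u * x.1, Subgroup.mem_zpowers _⟩⟩
  choose B hB using hex
  choose rep hrep hBrep using hF.good.exists_bk
  -- a point of the image block
  have hBU : ∀ x : N, B x ≠ hF.good.bk hu := by
    intro x h
    have h1 := hB x
    rw [h, mul_smul] at h1
    have h2 : x.1 • hF.good.bk hu = hF.good.bk hu := by
      have := congrArg (u • ·) h1
      simp only [smul_smul_self hF.good hu] at this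
      rw [this, (hF.smul_bk_eq_iff hu hu).mpr (Commute.refl u)]
    exact x.2.2 ((hF.smul_bk_eq_iff hu x.2.1).mp h2).symm
  have hxB : ∀ x : N, x.1 • B x = u • B x := by
    intro x
    have h1 := congrArg (u • ·) (hB x)
    simp only [mul_smul, smul_smul_self hF.good hu] at h1
    exact h1
  have hmove : ∀ (b : ↥hF.good.blocks) (x : G) (hx : x ∈ D),
      x • b = hF.good.bk (hF.good.mul_mem hx (hrep b)) := fun b x hx => by
    refine (congrArg (x • ·) (hBrep b)).trans ?_
    rw [hF.good.smul_bk]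
    exact Subtype.ext (by simp [Good.bk, hF.good.inv_eq hx])
  have hN : ∀ x : N, ¬ Commute u (x.1 * rep (B x) * x.1) := by
    intro x hc
    apply hBU x
    have h1 : x.1 • B x = hF.good.bk hu := by
      rw [hmove _ _ x.2.1, hF.bk_eq_iff]; exact hc.symm
    rw [hxB] at h1
    have := congrArg (u • ·) h1
    simp only [smul_smul_self hF.good hu] at this
    rw [this, (hF.smul_bk_eq_iff hu hu).mpr (Commute.refl u)]
  let ψ : N → N := fun x => ⟨x.1 * rep (B x) * x.1, hF.good.mul_mem x.2.1 (hrep _), hN x⟩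
  have hkey : ∀ (x : N) (b : ↥hF.good.blocks), B x = b → ¬ Commute x.1 (rep b) := by
    intro x b hb hc
    have h1 : x.1 • B x = B x := by
      have h2 := (hF.smul_bk_eq_iff (hrep (B x)) x.2.1).mpr (hb ▸ hc)
      rwa [← hBrep (B x)] at h2
    have h3 : u • B x = B x := (hxB x).symm.trans h1
    have hcu : Commute u (rep (B x)) := by
      refine (hF.smul_bk_eq_iff (hrep (B x)) hu).mp ?_
      rwa [← hBrep (B x)]
    exact x.2.2 (hF.trans u hu (rep (B x)) (hrep _) x.1 x.2.1 hcu (hb ▸ hc.symm))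
  have hinj : Function.Injective ψ := by
    intro x y h
    have h' : x.1 * rep (B x) * x.1 = y.1 * rep (B y) * y.1 := congrArg Subtype.val h
    have hBB : B x = B y := by
      have e : x.1 • B x = y.1 • B y := by
        rw [hmove _ _ x.2.1, hmove _ _ y.2.1]; exact Subtype.ext (congrArg (cblock D) h')
      rw [hxB, hxB] at e
      exact (MulAction.injective u) e
    rw [← hBB] at h'
    exact Subtype.ext (hF.good.midpoint_unique hp hp2 x.2.1 y.2.1 (hrep _)
      (hkey x _ rfl) (hkey y _ hBB.symm) h')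
  have hsur := Finite.injective_iff_surjective.mp hinj
  -- the point missed
  obtain ⟨c, hc, hC⟩ := hF.good.exists_bk C₀
  have huc : ¬ Commute u c := fun h => hne₀ (by rw [hU, hC, hF.bk_eq_iff]; exact h)
  set b := B ⟨c, hc, huc⟩
  have hub : ¬ Commute u (rep b) := by
    intro h
    exact hBU ⟨c, hc, huc⟩ ((hBrep b).trans ((hF.bk_eq_iff (hrep b) hu).mpr h.symm))
  have hum : ¬ Commute u (u * rep b * u) := by
    intro h
    apply hub
    have h1 := (Commute.conj_iff u).mpr h
    rw [mul_inv_cancel_right, hF.good.inv_eq hu] at h1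
    simpa [mul_assoc, hF.good.mul_self hu, ← mul_assoc u u] using h1
  obtain ⟨x, hx⟩ := hsur ⟨u * rep b * u, hF.good.mul_mem hu (hrep b), hum⟩
  have hx' : x.1 * rep (B x) * x.1 = u * rep b * u := congrArg Subtype.val hx
  have hBb : B x = b := by
    have e : x.1 • B x = u • b := by
      rw [hmove _ _ x.2.1, hmove _ _ hu]; exact Subtype.ext (congrArg (cblock D) hx')
    rw [hxB] at e
    exact (MulAction.injective u) e
  rw [hBb] at hx'
  have hxu : x.1 = u :=
    hF.good.midpoint_unique hp hp2 x.2.1 hu (hrep b) (hkey x b hBb) hub hx'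
  exact x.2.2 (by rw [hxu])

theorem card_fixed_modEq (L : Subgroup G) (hL : IsPGroup p ↥L) :
    p ∣ Nat.card (MulAction.fixedPoints ↥L ↥hF.good.blocks) := by
  haveI := Fact.mk hF.prime
  have h := hL.card_modEq_card_fixedPoints ↥hF.good.blocks
  exact Nat.modEq_zero_iff_dvd.mp (h.symm.trans (Nat.modEq_zero_iff_dvd.mpr hF.dvd_card_blocks))

omit [Finite G] hF in
theorem isPGroup_zpowers {g : G} (h : g ^ p = 1) : IsPGroup p ↥(Subgroup.zpowers g) := by
  rintro ⟨z, k, rfl⟩
  refine ⟨1, Subtype.ext ?_⟩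
  simp only [pow_one, SubmonoidClass.coe_pow, OneMemClass.coe_one]
  rw [← zpow_natCast, ← zpow_mul, mul_comm k, zpow_mul, zpow_natCast, h, one_zpow]

/-- Case of two different lines: too many blocks fixed by a group of order `p ^ 2`. -/
theorem false_of_two_lines {u x : G} (hu : u ∈ D) (hx : x ∈ D) (hux : ¬ Commute u x)
    {B C : ↥hF.good.blocks} (hne : B ≠ C) (hB : (u * x) • B = B) (hC : (u * x) • C = C)
    {z : G} (hz : z ∈ hF.good.sw B C) (hzg : z * (u * x) * z ≠ (u * x)⁻¹) : False := by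
  classical
  have hp := hF.prime
  have hp2 := hF.toMin.ne_two
  haveI := Fact.mk hp
  set g := u * x with hg
  have hgp : g ^ p = 1 := hF.good.pow_p hu hx hux
  obtain ⟨c, hc, hCc⟩ := hF.good.exists_bk C
  obtain ⟨z', hz', hzz'⟩ : ∃ z' ∈ hF.good.sw B C, z' ≠ z := by
    apply Set.exists_ne_of_one_lt_ncard
    rw [hF.ncard_sw hne hc hCc, hF.ncard_block hc]
    exact hp.one_lt
  set g' := z * z' with hg'
  have hnc : ¬ Commute z z' := fun h => hzz' (hF.sw_noncomm hne hz hz' h).symm
  have hg'p : g' ^ p = 1 := hF.good.pow_p hz.1 hz'.1 hnc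
  -- `g` normalises the line
  have hmap : ∀ y ∈ hF.good.sw B C, g * y * g⁻¹ ∈ hF.good.sw B C := by
    intro y hy
    refine ⟨hF.good.conj g y hy.1, ?_⟩
    have : g⁻¹ • B = B := by nth_rewrite 1 [← hB]; rw [inv_smul_smul]
    rw [mul_smul, mul_smul, this, hy.2, hC]
  obtain ⟨i, hi⟩ := hF.sw_eq_line hne hz hz' (Ne.symm hzz') _ (hmap z hz)
  obtain ⟨j, hj⟩ := hF.sw_eq_line hne hz hz' (Ne.symm hzz') _ (hmap z' hz')
  have hzinv : ∀ k : ℕ, z * g' ^ k * z = (g'⁻¹) ^ k := hF.good.swap_pow hz.1 hz'.1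
  have hconj : g * g' * g⁻¹ = g' ^ ((p - 1) * i + j) := by
    have e : g * g' * g⁻¹ = (g * z * g⁻¹) * (g * z' * g⁻¹) := by rw [hg']; group
    have h1 : g' ^ ((p - 1) * i) = (g' ^ i)⁻¹ := by
      refine eq_inv_of_mul_eq_one_left ?_
      rw [← pow_add, ← add_one_mul, Nat.sub_add_cancel hp.one_le, pow_mul, hg'p, one_pow]
    rw [e, hi, hj, ← hg', pow_add, h1, ← inv_pow, ← hzinv i]
    simp only [mul_assoc]
  set t := (p - 1) * i + j
  have hiter : ∀ k : ℕ, g ^ k * g' * (g ^ k)⁻¹ = g' ^ t ^ k := by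
    intro k
    induction k with
    | zero => simp
    | succ k ih =>
      rw [pow_succ', mul_inv_rev, show g * g ^ k * g' * ((g ^ k)⁻¹ * g⁻¹) =
        g * (g ^ k * g' * (g ^ k)⁻¹) * g⁻¹ by group, ih, ← conj_pow, hconj, ← pow_mul, pow_succ' t]
  have hord' : orderOf g' = p := hF.good.orderOf_mul hp hz.1 hz'.1 hnc
  have hgg : Commute g g' := by
    have h1 := hiter p
    rw [hgp, one_mul, inv_one, mul_one] at h1
    nth_rewrite 1 [← pow_one g'] at h1
    rw [pow_eq_pow_iff_modEq, hord', ← ZMod.natCast_eq_natCast_iff, Nat.cast_pow, ZMod.pow_card] at h1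
    have h2 : g' ^ t = g' := by
      nth_rewrite 2 [← pow_one g']
      rw [pow_eq_pow_iff_modEq, hord', ← ZMod.natCast_eq_natCast_iff]
      exact h1.symm
    rw [h2, mul_inv_eq_iff_eq_mul] at hconj
    exact hconj
  have hnotmem : ∀ k : ℕ, g' ≠ g ^ k := by
    intro k hk
    apply hzg
    have hk0 : ¬ p ∣ k := by
      rintro ⟨m, rfl⟩
      rw [pow_mul, hgp, one_pow] at hk
      rw [hk, orderOf_one] at hord'
      exact hp.one_lt.ne hord'
    obtain ⟨m, hm⟩ : ∃ m : ℕ, (g ^ k) ^ m = g := by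
      refine exists_pow_eq_self_of_coprime ?_
      rw [hF.good.orderOf_mul hp hu hx hux]
      exact (hp.coprime_iff_not_dvd.mpr hk0).symm
    rw [← hm, ← hk, hzinv m, inv_pow]
  set L := Subgroup.closure ({g, g'} : Set G) with hL
  have hgL : g ∈ L := Subgroup.subset_closure (Set.mem_insert g _)
  have hg'L : g' ∈ L := Subgroup.subset_closure (Set.mem_insert_of_mem g rfl)
  have hLp : IsPGroup p ↥L := by
    have hcen : ∀ a ∈ L, Commute a g ∧ Commute a g' := by
      intro a ha
      induction ha using Subgroup.closure_induction with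
      | mem a ha =>
        rcases ha with rfl | rfl
        · exact ⟨Commute.refl _, hgg⟩
        · exact ⟨hgg.symm, Commute.refl _⟩
      | one => exact ⟨Commute.one_left _, Commute.one_left _⟩
      | mul a b _ _ h1 h2 => exact ⟨h1.1.mul_left h2.1, h1.2.mul_left h2.2⟩
      | inv a _ h1 => exact ⟨h1.1.inv_left, h1.2.inv_left⟩
    have hcomm : ∀ a ∈ L, ∀ b ∈ L, Commute a b := by
      intro a ha b hb
      induction hb using Subgroup.closure_induction with
      | mem b hb =>
        rcases hb with rfl | rfl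
        · exact (hcen a ha).1
        · exact (hcen a ha).2
      | one => exact Commute.one_right a
      | mul _ _ _ _ h1 h2 => exact h1.mul_right h2
      | inv _ _ h1 => exact h1.inv_right
    have hexp : ∀ a ∈ L, a ^ p = 1 := by
      intro a ha
      induction ha using Subgroup.closure_induction with
      | mem a ha =>
        rcases ha with rfl | rfl
        · exact hgp
        · exact hg'p
      | one => exact one_pow p
      | mul a b ha hb h1 h2 => rw [(hcomm a ha b hb).mul_pow, h1, h2, one_mul]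
      | inv a _ h1 => rw [inv_pow, h1, inv_one]
    rintro ⟨a, ha⟩
    exact ⟨1, Subtype.ext (by simpa using hexp a ha)⟩
  set F' := MulAction.fixedPoints ↥L ↥hF.good.blocks
  have hfix : ∀ b ∈ F', g • b = b ∧ g' • b = b := fun b hb => ⟨hb ⟨g, hgL⟩, hb ⟨g', hg'L⟩⟩
  have hCmem : C ∈ F' := by
    have hg'C : g' • C = C := by rw [hg', mul_smul, hF.sw_back hz', hz.2]
    rintro ⟨a, ha⟩
    show a • C = C
    induction ha using Subgroup.closure_induction with
    | mem a ha =>
      rcases ha with rfl | rfl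
      · exact hC
      · exact hg'C
    | one => exact one_smul _ _
    | mul a b _ _ h1 h2 => rw [mul_smul, h2, h1]
    | inv a _ h1 => nth_rewrite 1 [← h1]; rw [inv_smul_smul]
  have hpF : p ∣ Nat.card F' := hF.card_fixed_modEq L hLp
  -- each fixed block determines a nontrivial power
  choose rep hrep hBrep using hF.good.exists_bk
  have hex : ∀ b : F', ∃ i : ℕ, i < p ∧ g' * rep b.1 * g'⁻¹ = g ^ i * rep b.1 * (g ^ i)⁻¹ := by
    intro b
    obtain ⟨h1, h2⟩ := hfix b.1 b.2
    rw [hBrep b.1] at h1 h2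
    refine hF.block_cycle hu hx hux (hrep b.1) h1 (hF.good.conj g' _ (hrep b.1)) ?_
    rw [← hF.bk_eq_iff (hF.good.conj g' _ (hrep b.1)) (hrep b.1), ← hF.good.smul_bk]
    exact h2
  choose idx hidx hidx' using hex
  have hpos : ∀ b, idx b ≠ 0 := by
    intro b h0
    have h := hidx' b
    rw [h0, pow_zero, one_mul, inv_one, mul_one, mul_inv_eq_iff_eq_mul] at h
    exact hF.not_commute_mul hz.1 hz'.1 (hrep b.1) hnc (show Commute g' _ from h).symm
  have hinj : Function.Injective idx := by
    intro b b' hbb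
    by_contra hne'
    set i := idx b with hi
    set h := (g ^ i)⁻¹ * g' with hh
    have hfixpt : ∀ w : F', idx w = i → Commute h (rep w.1) := by
      intro w hw
      have h1 := hidx' w
      rw [hw] at h1
      show h * rep w.1 = rep w.1 * h
      calc h * rep w.1 = (g ^ i)⁻¹ * (g' * rep w.1 * g'⁻¹) * g' := by rw [hh]; group
        _ = (g ^ i)⁻¹ * (g ^ i * rep w.1 * (g ^ i)⁻¹) * g' := by rw [h1]
        _ = _ := by rw [hh]; group
    have hgh : Commute g h :=
      (((Commute.refl g).pow_right i).inv_right).mul_right hgg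
    have hne1 : h ≠ 1 := fun e => hnotmem i (inv_mul_eq_one.mp e).symm
    set a := rep b.1
    set a' := rep b'.1
    have ha := hrep b.1
    have ha' := hrep b'.1
    have hab' : ¬ Commute a a' := fun hc => hne' (Subtype.ext
      ((hBrep b.1).trans (((hF.bk_eq_iff ha ha').mpr hc).trans (hBrep b'.1).symm)))
    obtain ⟨a₂, ha₂, hne₂, hc₂⟩ := hF.partner a ha
    obtain ⟨k, -, hk⟩ := hF.block_cycle hu hx hux ha
      (by rw [← hBrep b.1]; exact (hfix b.1 b.2).1) ha₂ hc₂.symm
    have hh₂ : Commute h a₂ := by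
      rw [hk]
      exact (((hgh.symm.pow_right k).mul_right (hfixpt b rfl)).mul_right (hgh.symm.pow_right k).inv_right)
    have memC : ∀ w, Commute h w → w ∈ Subgroup.centralizer ({h} : Set G) := fun w hw =>
      Subgroup.mem_centralizer_singleton_iff.mpr hw.eq.symm
    obtain ⟨d, hd, hdc⟩ := hF.toMin.exists_central_of_three (hF.toMin.centralizer_ne_top hne1)
      ha ha₂ (hF.mul a ha a₂ ha₂ hc₂ hne₂.symm) (memC a (hfixpt b rfl)) (memC a₂ hh₂)
      (memC _ ((hfixpt b rfl).mul_right hh₂)) hc₂ (z := 1)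
      (by rw [← pow_two]; exact (hF.good.commute_iff ha ha₂).mp hc₂) (Or.inl rfl)
    have hda : Commute d a ∧ d ∈ D := by
      rcases hd with rfl | rfl | rfl
      · exact ⟨Commute.refl _, ha⟩
      · exact ⟨hc₂.symm, ha₂⟩
      · exact ⟨(Commute.refl a).mul_left hc₂.symm, hF.mul a ha a₂ ha₂ hc₂ hne₂.symm⟩
    have := hdc a' ha' (memC a' (hfixpt b' hbb.symm))
    exact hab' (hF.trans a ha d hda.2 a' ha' hda.1.symm this.symm)
  let f : F' → Fin (p - 1) := fun b => ⟨idx b - 1, by have := hidx b; have := hpos b; omega⟩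
  have hfinj : Function.Injective f := fun b b' h => by
    have h' : idx b - 1 = idx b' - 1 := congrArg Fin.val h
    have := hpos b; have := hpos b'
    exact hinj (by omega)
  have hle := Nat.card_le_card_of_injective f hfinj
  rw [Nat.card_eq_fintype_card (α := Fin (p - 1)), Fintype.card_fin] at hle
  haveI : Nonempty F' := ⟨⟨C, hCmem⟩⟩
  have hpos' : 0 < Nat.card F' := Nat.card_pos
  have := Nat.le_of_dvd hpos' hpF
  omega

/-- The contradiction. -/
theorem false : False := by
  classical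
  have hp := hF.prime
  have hp2 := hF.toMin.ne_two
  have hp5 := hF.five
  haveI := Fact.mk hp
  obtain ⟨B, C, hne⟩ := hF.exists_ne_block
  obtain ⟨c, hc, hC⟩ := hF.good.exists_bk C
  have hcard : 1 < (hF.good.sw B C).ncard := by
    rw [hF.ncard_sw hne hc hC, hF.ncard_block hc]; exact hp.one_lt
  obtain ⟨u, x, hu, hx, hux'⟩ := (Set.one_lt_ncard_iff (Set.toFinite _)).mp hcard
  have hux : ¬ Commute u x := fun h => hux' (hF.sw_noncomm hne hu hx h)
  set g := u * x with hg
  have hgp : g ^ p = 1 := hF.good.pow_p hu.1 hx.1 hux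
  have hgB : g • B = B := by rw [mul_smul, hx.2, hF.sw_back hu]
  let F := {b : ↥hF.good.blocks // g • b = b}
  have hFfix : ∀ b : ↥hF.good.blocks,
      b ∈ MulAction.fixedPoints ↥(Subgroup.zpowers g) ↥hF.good.blocks ↔ g • b = b := by
    intro b
    refine ⟨fun h => h ⟨g, Subgroup.mem_zpowers g⟩, fun h => ?_⟩
    rintro ⟨z, k, rfl⟩
    exact MulAction.mem_stabilizer_iff.mp (zpow_mem (MulAction.mem_stabilizer_iff.mpr h) k)
  have hpF : p ∣ Nat.card F := by
    rw [← Nat.card_congr (Equiv.subtypeEquivRight hFfix)]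
    exact hF.card_fixed_modEq _ (isPGroup_zpowers hgp)
  haveI : Nonempty F := ⟨⟨B, hgB⟩⟩
  have hF5 : 5 ≤ Nat.card F := hp5.trans (Nat.le_of_dvd Nat.card_pos hpF)
  by_cases hcase : ∀ b d : F, b ≠ d → ∀ z ∈ hF.good.sw b.1 d.1, z * g * z = g⁻¹
  swap
  · push Not at hcase
    obtain ⟨b, d, hbd, z, hz, hzg⟩ := hcase
    exact hF.false_of_two_lines hu.1 hx.1 hux (fun h => hbd (Subtype.ext h)) b.2 d.2 hz hzg
  -- all lines invert `g`
  let T : Set G := {z | z ∈ D ∧ z * g * z = g⁻¹}
  have hTD : T ⊆ D := fun z hz => hz.1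
  have hclosed : ∀ a ∈ T, ∀ b ∈ T, a * b * a ∈ T := by
    intro a ha b hb
    refine ⟨hF.good.mul_mem ha.1 hb.1, ?_⟩
    have e : a * b * a * g * (a * b * a) = a * (b * (a * g * a) * b) * a := by simp only [mul_assoc]
    rw [e, ha.2, conj_involution_inv (hF.good.mul_self hb.1), hb.2, inv_inv, ha.2]
  have hnc : ∀ a ∈ T, ∀ b ∈ T, Commute a b → a = b := by
    intro a ha b hb hab
    by_contra hne'
    refine hF.not_commute_mul hu.1 hx.1 (hF.mul a ha.1 b hb.1 hab hne') hux ?_
    show a * b * g = g * (a * b)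
    have e : a * b * g * (b * a) = g := by
      rw [show a * b * g * (b * a) = a * (b * g * b) * a by simp only [mul_assoc], hb.2,
        conj_involution_inv (hF.good.mul_self ha.1), ha.2, inv_inv]
    calc a * b * g = a * b * g * ((b * a) * (a * b)) := by
          simp only [mul_assoc]
          rw [← mul_assoc a a b, hF.good.mul_self ha.1, one_mul, hF.good.mul_self hb.1, mul_one]
      _ = a * b * g * (b * a) * (a * b) := by simp only [mul_assoc]
      _ = _ := by rw [e]
  obtain ⟨Q, hQT, hQp, hQ⟩ := exists_pgroup_of_closed hF.good hp hp2 T hTD hclosed hnc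
  have hTfix : ∀ z ∈ T, ∀ b : ↥hF.good.blocks, g • b = b → g • (z • b) = z • b := by
    intro z hz b hb
    have : g • (z • b) = z • (g⁻¹ • b) := by
      rw [smul_smul, smul_smul, ← hz.2]
      congr 1
      rw [mul_assoc z g z, ← mul_assoc z z, hF.good.mul_self hz.1, one_mul]
    rw [this]
    congr 1
    nth_rewrite 1 [← hb]; rw [inv_smul_smul]
  have hKfix : ∀ k ∈ Subgroup.closure T, (∀ b : ↥hF.good.blocks, g • b = b → g • (k • b) = k • b) ∧
      ∀ b : ↥hF.good.blocks, g • b = b → g • (k⁻¹ • b) = k⁻¹ • b := by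
    intro k hk
    induction hk using Subgroup.closure_induction with
    | mem z hz => exact ⟨hTfix z hz, by rw [hF.good.inv_eq hz.1]; exact hTfix z hz⟩
    | one => simp
    | mul a b _ _ ha hb =>
      constructor
      · intro w hw; simpa only [mul_smul] using ha.1 _ (hb.1 w hw)
      · intro w hw; simpa only [mul_inv_rev, mul_smul] using hb.2 _ (ha.2 w hw)
    | inv a _ ha =>
      refine ⟨ha.2, fun w hw => ?_⟩
      rw [inv_inv]; exact ha.1 w hw
  have hswap : ∀ b d : F, b ≠ d → ∃ z ∈ T, z • b.1 = d.1 := by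
    intro b d hbd
    obtain ⟨e, he, hde⟩ := hF.good.exists_bk d.1
    have hne' : b.1 ≠ d.1 := fun h => hbd (Subtype.ext h)
    obtain ⟨z, hz⟩ : (hF.good.sw b.1 d.1).Nonempty := by
      rw [← Set.ncard_pos, hF.ncard_sw hne' he hde, hF.ncard_block he]; exact hp.pos
    exact ⟨z, ⟨hz.1, hcase b d hbd z hz⟩, hz.2⟩
  let b₀ : F := ⟨B, hgB⟩
  have horb : MulAction.orbit ↥Q B = {b : ↥hF.good.blocks | g • b = b} := by
    ext b
    constructor
    · rintro ⟨q, rfl⟩
      exact (hKfix q (hQT q.2)).1 B hgB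
    · intro hb
      by_cases hbB : b = B
      · exact ⟨1, by simp [hbB]⟩
      obtain ⟨e, he1, he2⟩ : ∃ e : F, e ≠ b₀ ∧ e ≠ ⟨b, hb⟩ := by
        by_contra hcon
        push Not at hcon
        have hsub : (Set.univ : Set F) ⊆ {b₀, ⟨b, hb⟩} := fun e _ => by
          by_cases h : e = b₀
          · exact Or.inl h
          · exact Or.inr (hcon e h)
        have h1 := Set.ncard_le_ncard hsub (Set.toFinite _)
        have h2 : ({b₀, ⟨b, hb⟩} : Set F).ncard ≤ 2 := by
          refine (Set.ncard_insert_le _ _).trans ?_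
          rw [Set.ncard_singleton]
        rw [Set.ncard_univ] at h1
        omega
      obtain ⟨z₁, hz₁, hz₁'⟩ := hswap b₀ e he1.symm
      obtain ⟨z₂, hz₂, hz₂'⟩ := hswap e ⟨b, hb⟩ he2
      refine ⟨⟨z₂ * z₁, hQ z₂ hz₂ z₁ hz₁⟩, ?_⟩
      show (z₂ * z₁) • B = b
      rw [mul_smul, show z₁ • B = e.1 from hz₁', hz₂']
  obtain ⟨n, hn⟩ := hQp.card_orbit B
  have hFn : Nat.card F = p ^ n := by rw [← hn, horb]; rfl
  -- `u` is a fixed-point-free involution on the fixed blocks
  have huT : u ∈ T := by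
    refine ⟨hu.1, ?_⟩
    have := hF.good.swap_pow hu.1 hx.1 1
    simpa [hg] using this
  let σ : Equiv.Perm F :=
    { toFun := fun b => ⟨u • b.1, hTfix u huT b.1 b.2⟩
      invFun := fun b => ⟨u • b.1, hTfix u huT b.1 b.2⟩
      left_inv := fun b => Subtype.ext (smul_smul_self hF.good hu.1 b.1)
      right_inv := fun b => Subtype.ext (smul_smul_self hF.good hu.1 b.1) }
  have hσ : σ ^ 2 ^ 1 = 1 := by
    rw [pow_one, pow_two]
    exact Equiv.ext σ.left_inv
  haveI := Fintype.ofFinite F
  have heven : 2 ∣ Fintype.card F := by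
    haveI := Fact.mk Nat.prime_two
    by_contra hodd
    obtain ⟨b, hb⟩ := Equiv.Perm.exists_fixed_point_of_prime hodd hσ
    have hub : u • b.1 = b.1 := congrArg Subtype.val hb
    obtain ⟨a, ha, hba⟩ := hF.good.exists_bk b.1
    have hxb : x • b.1 = b.1 := by
      have h1 := congrArg (u • ·) b.2
      simp only [hg, mul_smul, smul_smul_self hF.good hu.1] at h1
      rw [h1, hub]
    rw [hba] at hub hxb
    exact hux (hF.trans u hu.1 a ha x hx.1 ((hF.smul_bk_eq_iff ha hu.1).mp hub)
      ((hF.smul_bk_eq_iff ha hx.1).mp hxb).symm)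
  rw [← Nat.card_eq_fintype_card, hFn] at heven
  exact hp2 ((Nat.prime_dvd_prime_iff_eq Nat.prime_two hp).mp (Nat.prime_two.dvd_of_dvd_pow heven)).symm

end Flat

end CfsgLib.OddTransp48
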