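import Cfsg.Agent.OddTransp48.Contradiction

/-!
# A set of involutions with products of order `1, 2, p`, `p ≥ 5`, generates a solvable group
(given that groups of odd order are solvable)
-/

set_option autoImplicit false
set_option linter.style.haveILetI false

open Cfsg

namespace CfsgLib.OddTransp48

universe u

/-- If `D` is closed under conjugation and all products of two members have order dividing `2` or
`p ≥ 5`, then `D` generates a solvable group. -/
theorem isSolvable_closure
    (hFT : ∀ (K : Type u) [Group K] [Finite K], Odd (Nat.card K) → Group.IsSolvable K)
    {p : ℕ} (hp : p.Prime) (hp5 : 5 ≤ p) :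
    ∀ (n : ℕ) (G : Type u) [Group G] [Finite G] (D : Set G), Nat.card G ≤ n → Good p D →
      Group.IsSolvable ↥(Subgroup.closure D) := by
  intro n
  induction n with
  | zero => intro G _ _ D hn _; have := Nat.card_pos (α := G); omega
  | succ n ih =>
    intro G _ _ D hn hG
    by_cases hgen : Subgroup.closure D = ⊤
    swap
    · set K := Subgroup.closure D
      have hlt : Nat.card ↥K < Nat.card G := lt_of_le_of_ne (Subgroup.card_le_card_group K) fun h => hgen (Subgroup.eq_top_of_card_eq K h)
      have h := ih ↥K (K.subtype ⁻¹' D) (by omega) (hG.comap K.subtype K.subtype_injective)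
      have htop : Subgroup.closure (K.subtype ⁻¹' D) = ⊤ := by
        rw [eq_top_iff]
        rintro ⟨x, hx⟩ -
        induction hx using Subgroup.closure_induction with
        | mem y hy => exact Subgroup.subset_closure (show y ∈ D from hy)
        | one => exact one_mem _
        | mul y z _ _ h1 h2 => exact mul_mem h1 h2
        | inv y _ h1 => exact inv_mem h1
      rw [htop] at h
      exact Group.isSolvable_of_surjective (f := (Subgroup.topEquiv (G := ↥K)).toMonoidHom)
        (Subgroup.topEquiv (G := ↥K)).surjective
    -- normal solvable subgroups are trivial in a counterexample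
    by_contra hns
    have hnsG : ¬ Group.IsSolvable G := fun h => hns inferInstance
    have hrad : ∀ N : Subgroup G, N.Normal → Group.IsSolvable ↥N → N = ⊥ := by
      intro N hN hNs
      by_contra hbot
      haveI := hN
      have hlt : Nat.card (G ⧸ N) < Nat.card G := by
        rw [← Subgroup.card_mul_index N, ← Subgroup.index_eq_card]
        refine (Nat.lt_mul_iff_one_lt_left (Nat.pos_of_ne_zero Subgroup.index_ne_zero_of_finite)).mpr ?_
        exact Subgroup.one_lt_card_iff_ne_bot N |>.mpr hbot
      have h := ih (G ⧸ N) (QuotientGroup.mk' N '' D \ {1}) (by omega)
        (hG.image _ (QuotientGroup.mk'_surjective N))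
      rw [Good.closure_image _ hgen (QuotientGroup.mk'_surjective N)] at h
      haveI : Group.IsSolvable (G ⧸ N) :=
        Group.isSolvable_of_surjective (f := (Subgroup.topEquiv (G := G ⧸ N)).toMonoidHom)
          (Subgroup.topEquiv (G := G ⧸ N)).surjective
      haveI := hNs
      exact hnsG (Group.isSolvable_of_ker_le_range N.subtype (QuotientGroup.mk' N) (by simp))
    have hne : D.Nonempty := by
      by_contra h
      rw [Set.not_nonempty_iff_eq_empty] at h
      rw [h, Subgroup.closure_empty] at hns
      exact hns inferInstance
    have hM : Min p D :=
      { good := hG, prime := hp, five := hp5, nonempty := hne, gen := hgen, rad := hrad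
        sol := fun H hH => by
          have hlt : Nat.card ↥H < Nat.card G := lt_of_le_of_ne (Subgroup.card_le_card_group H) fun h => hH (Subgroup.eq_top_of_card_eq H h)
          have h := ih ↥H (H.subtype ⁻¹' D) (by omega) (hG.comap H.subtype H.subtype_injective)
          have himg : (Subgroup.closure (H.subtype ⁻¹' D)).map H.subtype =
              Subgroup.closure (D ∩ (H : Set G)) := by
            rw [MonoidHom.map_closure]
            congr 1
            ext x
            constructor
            · rintro ⟨y, hy, rfl⟩; exact ⟨hy, y.2⟩
            · rintro ⟨hx, hx'⟩; exact ⟨⟨x, hx'⟩, hx, rfl⟩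
          rw [← himg]
          exact Group.isSolvable_of_surjective
            (f := (H.subtype.subgroupMap (Subgroup.closure (H.subtype ⁻¹' D))))
            (H.subtype.subgroupMap_surjective _) }
    exact Flat.false
      { toMin := hM
        trans := fun a ha b hb c hc => hM.commute_trans hFT ha hb hc
        mul := fun a ha b hb hab hne => hM.mul_mem hFT ha hb hab hne
        partner := fun a ha => hM.exists_partner hFT ha }

end CfsgLib.OddTransp48
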