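import Cfsg.Agent.OddTransp48.Main
import Cfsg.Prelude.Def_SporadicB
import Cfsg.Agent.Eq.Def_SporadicB

/-!
# A rank 3 class of involutions in a group with trivial solvable radical is a class of 3-transpositions
(given that groups of odd order are solvable)
-/

set_option autoImplicit false
set_option linter.style.haveILetI false

open Cfsg

namespace CfsgLib.OddTransp48

universe u

variable {G : Type u} [Group G]

theorem involution_mul_pow_mem {D : Set G} (hconj : ∀ g : G, ∀ d ∈ D, g * d * g⁻¹ ∈ D)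
    {x w : G} (hx : x * x = 1) (hw : w * w = 1) (hxD : x ∈ D) (hwD : w ∈ D) (k : ℕ) :
    x * (x * w) ^ k ∈ D := by
  induction k using Nat.strong_induction_on with
  | _ k ih =>
    rcases k with _ | _ | k
    · simpa using hxD
    · rw [pow_one, ← mul_assoc, hx, one_mul]; exact hwD
    · have e : x * (x * w) ^ (k + 2) = (w * x) * (x * (x * w) ^ k) * (w * x)⁻¹ := by
        have h1 : (w * x)⁻¹ = x * w := by
          rw [mul_inv_rev, inv_eq_of_mul_eq_one_right hx, inv_eq_of_mul_eq_one_right hw]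
        rw [h1, pow_succ, pow_succ']
        simp only [mul_assoc]
        rw [← mul_assoc x x, hx, one_mul, ← mul_assoc x x, hx, one_mul]
      rw [e]; exact hconj _ _ (ih k (by omega))

theorem isThreeTranspositionClass [Finite G]
    (hFT : ∀ (K : Type u) [Group K] [Finite K], Odd (Nat.card K) → Group.IsSolvable K)
    (hsol : ∀ N : Subgroup G, N.Normal → Group.IsSolvable ↥N → N = ⊥) {D : Set G}
    (hinv : ∀ d ∈ D, orderOf d = 2) (hclass : ∃ d ∈ D, D = conjugatesOf d)
    (hgen : Subgroup.closure D = ⊤)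
    (hrank : ∃ x ∈ D, ∃ y ∈ D, ∃ z ∈ D,
      D = {w : G | ∃ g : G, Commute g x ∧ g * x * g⁻¹ = w} ∪
        {w : G | ∃ g : G, Commute g x ∧ g * y * g⁻¹ = w} ∪
        {w : G | ∃ g : G, Commute g x ∧ g * z * g⁻¹ = w}) :
    IsThreeTranspositionClass D := by
  haveI := Fact.mk Nat.prime_two
  obtain ⟨x, hx, y, hy, z, hz, hD⟩ := hrank
  obtain ⟨d₀, hd₀, hD₀⟩ := hclass
  have hconj : ∀ g : G, ∀ d ∈ D, g * d * g⁻¹ ∈ D := by
    intro g d hd
    rw [hD₀] at hd ⊢
    exact IsConj.trans hd (isConj_iff.mpr ⟨g, rfl⟩)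
  have hsq : ∀ d ∈ D, d * d = 1 := fun d hd => by rw [← pow_two, ← hinv d hd, pow_orderOf_eq_one]
  set a := orderOf (x * y)
  set b := orderOf (x * z)
  -- all product orders are `a` or `b`
  have hx2 : ∀ w ∈ D, w ≠ x → orderOf (x * w) = a ∨ orderOf (x * w) = b := by
    intro w hw hwx
    rw [hD] at hw
    have key : ∀ v g : G, Commute g x → orderOf (x * (g * v * g⁻¹)) = orderOf (x * v) := by
      intro v g hg
      have : x * (g * v * g⁻¹) = (MulAut.conj g) (x * v) := by
        rw [MulAut.conj_apply]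
        calc x * (g * v * g⁻¹) = x * g * v * g⁻¹ := by simp only [mul_assoc]
          _ = _ := by rw [← hg.eq]; simp only [mul_assoc]
      rw [this]; exact MulEquiv.orderOf_eq _ _
    rcases hw with (⟨g, hg, rfl⟩ | ⟨g, hg, rfl⟩) | ⟨g, hg, rfl⟩
    · exact absurd (by rw [hg.eq, mul_inv_cancel_right]) hwx
    · exact Or.inl (key y g hg)
    · exact Or.inr (key z g hg)
  have hall : ∀ v ∈ D, ∀ w ∈ D, v ≠ w → orderOf (v * w) = a ∨ orderOf (v * w) = b := by
    intro v hv w hw hvw
    obtain ⟨g, hg⟩ : ∃ g, g * x * g⁻¹ = v := by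
      rw [hD₀] at hx hv
      exact isConj_iff.mp (IsConj.trans hx.symm hv)
    have hw' := hconj g⁻¹ w hw
    have hne : g⁻¹ * w * g⁻¹⁻¹ ≠ x := fun h => hvw (by rw [← hg, ← h]; group)
    have e : v * w = (MulAut.conj g) (x * (g⁻¹ * w * g⁻¹⁻¹)) := by
      rw [MulAut.conj_apply, ← hg]; group
    rw [e, MulEquiv.orderOf_eq]
    exact hx2 _ hw' hne
  -- divisors of product orders are product orders
  have hdiv : ∀ w ∈ D, w ≠ x → ∀ q, q.Prime → q ∣ orderOf (x * w) → q = a ∨ q = b := by
    intro w hw hwx q hq hqd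
    obtain ⟨k, hk⟩ := hqd
    have hpos : 0 < orderOf (x * w) := orderOf_pos _
    have hk0 : k ≠ 0 := by intro h; rw [h, mul_zero] at hk; omega
    have hord : orderOf ((x * w) ^ k) = q := by
      rw [orderOf_pow' _ hk0, hk, Nat.gcd_mul_left_left, Nat.mul_div_cancel _ (Nat.pos_of_ne_zero hk0)]
    have hw' := involution_mul_pow_mem hconj (hsq x hx) (hsq w hw) hx hw k
    have hne : x * (x * w) ^ k ≠ x := by
      intro h
      rw [mul_eq_left.mp h, orderOf_one] at hord
      exact hq.one_lt.ne hord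
    have := hx2 _ hw' hne
    rwa [← mul_assoc, hsq x hx, one_mul, hord] at this
  have hxne : x ≠ 1 := fun h => by have := hinv x hx; rw [h, orderOf_one] at this; omega
  have hcentre : x ∉ Subgroup.center G := fun h => hxne (by
    rw [hsol _ inferInstance (Group.isSolvable_of_comm fun u v =>
      Subtype.ext (Subgroup.mem_center_iff.mp v.2 u)), Subgroup.mem_bot] at h
    exact h)
  by_cases hodd : ∀ w ∈ D, w ≠ x → Odd (orderOf (x * w))
  · exfalso
    have hiso : IsIsolated x := fun g hc => by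
      by_contra hne
      have h := hodd _ (hconj g x hx) hne
      have h2 : (x * (g * x * g⁻¹)) ^ 2 = 1 := by
        rw [hc.mul_pow, pow_two, pow_two, hsq x hx, hsq _ (hconj g x hx), one_mul]
      obtain ⟨i, -, hi⟩ := (Nat.dvd_prime_pow Nat.prime_two).mp
        (show orderOf (x * (g * x * g⁻¹)) ∣ 2 ^ 1 from orderOf_dvd_of_pow_eq_one h2)
      rw [hi] at h
      rcases i with _ | i
      · rw [pow_zero, orderOf_eq_one_iff, mul_eq_one_iff_eq_inv,
          inv_eq_of_mul_eq_one_right (hsq _ (hconj g x hx))] at hi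
        exact hne hi.symm
      · exact absurd h (by simp [Nat.not_odd_iff_even, Nat.even_pow])
    have hzs := ZStar.inZStar_of_isolated (hinv x hx) hiso
    have hoddc : Odd (Nat.card ↥(pPrimeCore 2 G)) := by
      rw [← Nat.not_even_iff_odd, even_iff_two_dvd]; exact Constrained.pPrimeCore_not_dvd
    have hbot := hsol _ (Constrained.instNormalPPrimeCore 2) (hFT _ hoddc)
    refine hcentre (Subgroup.mem_center_iff.mpr fun g => ?_)
    have := hzs g
    rw [hbot, Subgroup.mem_bot, mul_inv_eq_one, mul_inv_eq_iff_eq_mul] at this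
    exact this
  push Not at hodd
  obtain ⟨w₀, hw₀, hw₀x, hev⟩ := hodd
  rw [Nat.not_odd_iff_even, even_iff_two_dvd] at hev
  have h2ab := hdiv w₀ hw₀ hw₀x 2 Nat.prime_two hev
  -- the other order
  obtain ⟨c, hc⟩ : ∃ c, ∀ v ∈ D, ∀ w ∈ D, v ≠ w → orderOf (v * w) = 2 ∨ orderOf (v * w) = c := by
    rcases h2ab with h | h
    · exact ⟨b, fun v hv w hw hne => h.symm ▸ hall v hv w hw hne⟩
    · exact ⟨a, fun v hv w hw hne => h.symm ▸ (hall v hv w hw hne).symm⟩
  by_cases htwo : ∀ w ∈ D, w ≠ x → ∃ k, orderOf (x * w) = 2 ^ k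
  · exfalso
    have hmem : x ∈ pCore 2 G := by
      refine BaerSuzuki.mem_pCore x fun g => ?_
      by_cases hgx : g * x * g⁻¹ = x
      · rw [hgx]
        exact BaerSuzuki.isPGroup_two_closure_pair (hinv x hx) (hinv x hx) (a := 0)
          (by rw [hsq x hx, one_pow])
      obtain ⟨k, hk⟩ := htwo _ (hconj g x hx) hgx
      exact BaerSuzuki.isPGroup_two_closure_pair (hinv x hx) (hinv _ (hconj g x hx)) (a := k)
        (by rw [← hk, pow_orderOf_eq_one])
    haveI := (Constrained.isPGroup_pCore (G := G) (p := 2)).isNilpotent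
    rw [hsol _ (Constrained.instNormalPCore 2) inferInstance, Subgroup.mem_bot] at hmem
    exact hxne hmem
  push Not at htwo
  obtain ⟨w₁, hw₁, hw₁x, hnot⟩ := htwo
  obtain ⟨q, hq, hqd, hq2⟩ : ∃ q, q.Prime ∧ q ∣ orderOf (x * w₁) ∧ q ≠ 2 := by
    by_contra hcon
    push Not at hcon
    exact hnot _ (Nat.eq_prime_pow_of_unique_prime_dvd (orderOf_pos _).ne'
      fun {d} hd hdd => hcon d hd hdd)
  have hcq : c = q := by
    obtain ⟨k, hk⟩ := hqd
    have hpos : 0 < orderOf (x * w₁) := orderOf_pos _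
    have hk0 : k ≠ 0 := by intro h; rw [h, mul_zero] at hk; omega
    have hord : orderOf ((x * w₁) ^ k) = q := by
      rw [orderOf_pow' _ hk0, hk, Nat.gcd_mul_left_left, Nat.mul_div_cancel _ (Nat.pos_of_ne_zero hk0)]
    have hw' := involution_mul_pow_mem hconj (hsq x hx) (hsq w₁ hw₁) hx hw₁ k
    have hne : x ≠ x * (x * w₁) ^ k := by
      intro h
      rw [mul_eq_left.mp h.symm, orderOf_one] at hord
      exact hq.one_lt.ne hord
    have := hc x hx _ hw' hne
    rw [← mul_assoc, hsq x hx, one_mul, hord] at this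
    exact (this.resolve_left hq2).symm
  subst hcq
  have hprod : ∀ u ∈ D, ∀ v ∈ D, (u * v) ^ 2 = 1 ∨ (u * v) ^ c = 1 := by
    intro u hu v hv
    by_cases huv : u = v
    · subst huv; left; rw [hsq u hu, one_pow]
    rcases hc u hu v hv huv with h | h
    · left; rw [← h]; exact pow_orderOf_eq_one _
    · right; rw [← h]; exact pow_orderOf_eq_one _
  by_cases hc3 : c = 3
  · subst hc3
    exact ⟨⟨hinv, hprod⟩, ⟨d₀, hd₀, hD₀⟩, hgen⟩
  exfalso
  have hc5 : 5 ≤ c := by
    rcases hq.eq_two_or_odd with h | h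
    · exact absurd h hq2
    · have := hq.two_le; omega
  have hs := isSolvable_closure hFT hq hc5 (Nat.card G) G D le_rfl ⟨hinv, hconj, hprod⟩
  rw [hgen] at hs
  have htop := hsol ⊤ inferInstance hs
  exact hxne (Subgroup.mem_bot.mp (htop ▸ Subgroup.mem_top x))

end CfsgLib.OddTransp48
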